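import Mathlib.GroupTheory.Schreier
import Mathlib.GroupTheory.Index
import Mathlib.Tactic

/-!
# Elementary lemmas on indices used for the Guralnick–Shumyatsky bound
-/

set_option autoImplicit false
open scoped commutatorElement Pointwise

namespace Cfsg.Agent.Lib.GurShum.Basic

/-- In a commutative group, the order of a finite join is at most the product of the orders. -/
theorem card_biSup_le {Q : Type*} [Group Q] [Finite Q] (hc : ∀ a b : Q, a * b = b * a)
    {ι : Type*} (s : Finset ι) (P : ι → Subgroup Q) :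
    Nat.card ((⨆ i ∈ s, P i : Subgroup Q)) ≤ ∏ i ∈ s, Nat.card (P i) := by
  classical
  induction s using Finset.induction_on with
  | empty => simp
  | insert a s ha ih =>
    rw [Finset.prod_insert ha, Finset.iSup_insert]
    set R : Subgroup Q := ⨆ i ∈ s, P i with hR
    have hn : R.Normal := ⟨fun n hn g => by
      rw [hc g n]
      simpa using hn⟩
    have h1 : ((P a ⊔ R : Subgroup Q) : Set Q) = (P a : Set Q) * (R : Set Q) :=
      Subgroup.mul_normal (P a) R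
    have h2 : Nat.card (P a ⊔ R : Subgroup Q) = Nat.card (((P a : Set Q) * (R : Set Q) : Set Q)) := by
      rw [← h1]
      rfl
    rw [h2]
    calc _ ≤ Nat.card (P a : Set Q) * Nat.card (R : Set Q) := Set.natCard_mul_le
      _ ≤ _ := Nat.mul_le_mul_left _ ih

/-- In a group with commutative quotient by `Y`, the index of `Y` is bounded by the relative
indices in a generating family. -/
theorem index_le_prod_relIndex {X : Type*} [Group X] [Finite X] (Y : Subgroup X) [Y.Normal]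
    (hc : ∀ a b : X, a * b * a⁻¹ * b⁻¹ ∈ Y) {ι : Type*} [Fintype ι] (H : ι → Subgroup X)
    (hH : ⨆ i, H i = ⊤) : Y.index ≤ ∏ i, Y.relIndex (H i) := by
  classical
  set π := QuotientGroup.mk' Y with hπ
  have hπs : Function.Surjective π := QuotientGroup.mk'_surjective Y
  have hker : π.ker = Y := QuotientGroup.ker_mk' Y
  have hQc : ∀ a b : X ⧸ Y, a * b = b * a := by
    intro a b
    obtain ⟨a, rfl⟩ := hπs a
    obtain ⟨b, rfl⟩ := hπs b
    have h1 : π (a * b * a⁻¹ * b⁻¹) = 1 := by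
      rw [← MonoidHom.mem_ker, hker]
      exact hc a b
    simp only [map_mul, map_inv] at h1
    calc π a * π b = (π a * π b * (π a)⁻¹ * (π b)⁻¹) * (π b * π a) := by group
      _ = π b * π a := by rw [h1, one_mul]
  have h1 := card_biSup_le hQc Finset.univ (fun i => (H i).map π)
  have h2 : (⨆ i ∈ (Finset.univ : Finset ι), (H i).map π) = ⊤ := by
    simp only [Finset.mem_univ, iSup_pos]
    rw [← Subgroup.map_iSup, hH, ← MonoidHom.range_eq_map, MonoidHom.range_eq_top]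
    exact hπs
  rw [h2, Subgroup.card_top] at h1
  have h3 : Y.index = Nat.card (X ⧸ Y) := rfl
  rw [h3]
  refine h1.trans (le_of_eq ?_)
  apply Finset.prod_congr rfl
  intro i _
  rw [← Subgroup.relIndex_ker, hker]

/-- An index is bounded by the size of a target of a map whose fibres lie in cosets. -/
theorem index_le_of_fibers {H : Type*} [Group H] (L : Subgroup H) {S : Type*} [Finite S]
    (φ : H → S) (hφ : ∀ g g', φ g = φ g' → g⁻¹ * g' ∈ L) : L.index ≤ Nat.card S := by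
  have hinj : Function.Injective (fun c : H ⧸ L => φ c.out) := by
    intro c c' h
    have h1 := hφ _ _ h
    rw [← QuotientGroup.out_eq' c, ← QuotientGroup.out_eq' c']
    exact QuotientGroup.eq.mpr h1
  haveI : Finite (H ⧸ L) := Finite.of_injective _ hinj
  exact Nat.card_le_card_of_injective _ hinj

/-- The number of commutators is bounded by the square of the index of the center. -/
theorem card_commutatorSet_le {T : Type*} [Group T] [Finite T] :
    Nat.card (commutatorSet T) ≤ (Subgroup.center T).index ^ 2 := by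
  set Z := Subgroup.center T with hZ
  have hsurj : Function.Surjective
      (fun p : (T ⧸ Z) × (T ⧸ Z) =>
        (⟨⁅p.1.out, p.2.out⁆, commutator_mem_commutatorSet _ _⟩ : commutatorSet T)) := by
    rintro ⟨_, g₁, g₂, rfl⟩
    refine ⟨((g₁ : T ⧸ Z), (g₂ : T ⧸ Z)), Subtype.ext ?_⟩
    have h1 : (g₁ : T ⧸ Z) = ((g₁ : T ⧸ Z).out : T ⧸ Z) := (QuotientGroup.out_eq' _).symm
    have h2 : (g₂ : T ⧸ Z) = ((g₂ : T ⧸ Z).out : T ⧸ Z) := (QuotientGroup.out_eq' _).symm
    obtain ⟨z₁, hz₁⟩ : ∃ z₁ ∈ Z, (g₁ : T ⧸ Z).out = g₁ * z₁ := by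
      refine ⟨g₁⁻¹ * (g₁ : T ⧸ Z).out, QuotientGroup.eq.mp h1, by group⟩
    obtain ⟨z₂, hz₂⟩ : ∃ z₂ ∈ Z, (g₂ : T ⧸ Z).out = g₂ * z₂ := by
      refine ⟨g₂⁻¹ * (g₂ : T ⧸ Z).out, QuotientGroup.eq.mp h2, by group⟩
    obtain ⟨hz₁, e₁⟩ := hz₁
    obtain ⟨hz₂, e₂⟩ := hz₂
    show ⁅(g₁ : T ⧸ Z).out, (g₂ : T ⧸ Z).out⁆ = ⁅g₁, g₂⁆
    rw [e₁, e₂]
    have c1 := Subgroup.mem_center_iff.mp hz₁
    have c2 := Subgroup.mem_center_iff.mp hz₂
    simp only [commutatorElement_def]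
    have c1' : ∀ x : T, z₁ * x = x * z₁ := fun x => (c1 x).symm
    have c2' : ∀ x : T, z₂ * x = x * z₂ := fun x => (c2 x).symm
    calc g₁ * z₁ * (g₂ * z₂) * (g₁ * z₁)⁻¹ * (g₂ * z₂)⁻¹
        = g₁ * (z₁ * g₂) * z₂ * z₁⁻¹ * g₁⁻¹ * z₂⁻¹ * g₂⁻¹ := by group
      _ = g₁ * (g₂ * z₁) * z₂ * z₁⁻¹ * g₁⁻¹ * z₂⁻¹ * g₂⁻¹ := by rw [c1']
      _ = g₁ * g₂ * (z₁ * z₂ * z₁⁻¹) * g₁⁻¹ * z₂⁻¹ * g₂⁻¹ := by group
      _ = g₁ * g₂ * z₂ * g₁⁻¹ * z₂⁻¹ * g₂⁻¹ := by
          rw [show z₁ * z₂ * z₁⁻¹ = z₂ by rw [c1' z₂]; group]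
      _ = g₁ * g₂ * (z₂ * g₁⁻¹) * z₂⁻¹ * g₂⁻¹ := by group
      _ = g₁ * g₂ * (g₁⁻¹ * z₂) * z₂⁻¹ * g₂⁻¹ := by rw [c2']
      _ = g₁ * g₂ * g₁⁻¹ * g₂⁻¹ := by group
  have h := Nat.card_le_card_of_surjective _ hsurj
  rw [Nat.card_prod] at h
  have h3 : Nat.card (T ⧸ Z) = Z.index := rfl
  rw [h3] at h
  rwa [pow_two]

end Cfsg.Agent.Lib.GurShum.Basic
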