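import Cfsg.Agent.Lib.GurShum.Basic
import Cfsg.Agent.Lib.Coprime.Generation2

/-!
# Bounding an index by the indices in fixed points of hyperplanes
-/

set_option autoImplicit false
set_option linter.unusedSectionVars false
open scoped commutatorElement Pointwise

namespace Cfsg.Agent.Lib.GurShum.Chain

open Cfsg.Agent.Lib.GurShum.Basic Cfsg.Agent.Lib.Coprime.Action
open Cfsg.Agent.Lib.Coprime.Generation2

universe u

variable {G : Type u} [Group G]

/-- Subgroups of `A` of index at most `q`. -/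
abbrev Hyp (q : ℕ) (A : Subgroup G) : Type u := {B : Subgroup G // B ≤ A ∧ B.relIndex A ≤ q}

noncomputable instance [Finite G] (q : ℕ) (A : Subgroup G) : Fintype (Hyp q A) := Fintype.ofFinite _

/-- Multiplicativity in a tower, intersected with `C`. -/
theorem relIndex_tower {Y Z X : Subgroup G} (C : Subgroup G) (hYZ : Y ≤ Z) (hZX : Z ≤ X) :
    Y.relIndex (Z ⊓ C) * Z.relIndex (X ⊓ C) = Y.relIndex (X ⊓ C) := by
  have e1 : Z ⊓ (X ⊓ C) = Z ⊓ C := by
    rw [← inf_assoc, inf_eq_left.mpr hZX]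
  have e2 : Y ⊓ (X ⊓ C) = Y ⊓ C := by
    rw [← inf_assoc, inf_eq_left.mpr (hYZ.trans hZX)]
  have e3 : Y ⊓ (Z ⊓ C) = Y ⊓ C := by
    rw [← inf_assoc, inf_eq_left.mpr hYZ]
  rw [← Subgroup.inf_relIndex_right Y (Z ⊓ C), ← Subgroup.inf_relIndex_right Z (X ⊓ C),
    ← Subgroup.inf_relIndex_right Y (X ⊓ C), e1, e2, e3]
  exact Subgroup.relIndex_mul_relIndex _ _ _ (inf_le_inf_right C hYZ) (inf_le_inf_right C hZX)

/-- For `N` normalized by `M`, the relative index in a subgroup divides that in `M`. -/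
theorem relIndex_dvd_of_le {N L M : Subgroup G} (hLM : L ≤ M)
    (hMN : M ≤ Subgroup.normalizer (N : Set G)) : N.relIndex L ∣ N.relIndex M := by
  haveI : (N.subgroupOf M).Normal := Subgroup.normal_subgroupOf_of_le_normalizer hMN
  have h := Subgroup.relIndex_dvd_index_of_normal (N.subgroupOf M) (L.subgroupOf M)
  rwa [Subgroup.relIndex_subgroupOf hLM] at h

/-- The relative centre. -/
def relCenter (S Y : Subgroup G) (h : S ≤ Subgroup.normalizer (Y : Set G)) : Subgroup G where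
  carrier := {x | x ∈ S ∧ ∀ y ∈ S, x * y * x⁻¹ * y⁻¹ ∈ Y}
  one_mem' := ⟨S.one_mem, fun y _ => by simp [Y.one_mem]⟩
  mul_mem' := by
    rintro a b ⟨ha, ha'⟩ ⟨hb, hb'⟩
    refine ⟨S.mul_mem ha hb, fun y hy => ?_⟩
    have h1 := conj_mem_of_le_normalizer h ha (hb' y hy)
    have h2 := Y.mul_mem h1 (ha' y hy)
    have e : a * b * y * (a * b)⁻¹ * y⁻¹ =
        a * (b * y * b⁻¹ * y⁻¹) * a⁻¹ * (a * y * a⁻¹ * y⁻¹) := by group
    rw [e]
    exact h2
  inv_mem' := by
    rintro a ⟨ha, ha'⟩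
    refine ⟨S.inv_mem ha, fun y hy => ?_⟩
    have h1 := conj_mem_of_le_normalizer h (S.inv_mem ha) (Y.inv_mem (ha' y hy))
    have e : a⁻¹ * y * a⁻¹⁻¹ * y⁻¹ = a⁻¹ * (a * y * a⁻¹ * y⁻¹)⁻¹ * a⁻¹⁻¹ := by group
    rw [e]
    exact h1

theorem mem_relCenter {S Y : Subgroup G} (h : S ≤ Subgroup.normalizer (Y : Set G)) (x : G) :
    x ∈ relCenter S Y h ↔ x ∈ S ∧ ∀ y ∈ S, x * y * x⁻¹ * y⁻¹ ∈ Y := Iff.rfl

variable [Finite G]

theorem rne (H K : Subgroup G) : H.relIndex K ≠ 0 := Subgroup.index_ne_zero_of_finite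

/-- The relative centre grows for `p`-groups. -/
theorem exists_mem_relCenter {p : ℕ} [Fact p.Prime] {S Y : Subgroup G} (hS : IsPGroup p S)
    (hYS : Y ≤ S) (h : S ≤ Subgroup.normalizer (Y : Set G)) (hne : Y ≠ S) :
    ∃ x ∈ relCenter S Y h, x ∉ Y := by
  haveI hYn : (Y.subgroupOf S).Normal := Subgroup.normal_subgroupOf_of_le_normalizer h
  set Q := S ⧸ Y.subgroupOf S with hQ
  have hnt : Nontrivial Q := by
    rw [QuotientGroup.nontrivial_iff]
    intro htop
    exact hne (le_antisymm hYS (Subgroup.subgroupOf_eq_top.mp htop))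
  have hQp : IsPGroup p Q := hS.to_quotient _
  haveI : Nontrivial (Subgroup.center Q) := hQp.center_nontrivial
  obtain ⟨⟨c, hc⟩, hc1⟩ := exists_ne (1 : Subgroup.center Q)
  obtain ⟨x, rfl⟩ := QuotientGroup.mk_surjective c
  refine ⟨x, ⟨x.2, fun y hy => ?_⟩, ?_⟩
  · have h1 := Subgroup.mem_center_iff.mp hc (QuotientGroup.mk (⟨y, hy⟩ : S))
    have h2 : ((x * ⟨y, hy⟩ * x⁻¹ * (⟨y, hy⟩ : S)⁻¹ : S) : S ⧸ Y.subgroupOf S) = 1 := by
      simp only [QuotientGroup.mk_mul, QuotientGroup.mk_inv]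
      rw [← h1]
      group
    have h3 := (QuotientGroup.eq_one_iff _).mp h2
    exact h3
  · intro hx
    apply hc1
    apply Subtype.ext
    show ((x : S ⧸ Y.subgroupOf S)) = 1
    exact (QuotientGroup.eq_one_iff _).mpr hx

theorem normalizer_relCenter {S Y : Subgroup G} (h : S ≤ Subgroup.normalizer (Y : Set G))
    {T : Subgroup G} (hTS : T ≤ Subgroup.normalizer (S : Set G))
    (hTY : T ≤ Subgroup.normalizer (Y : Set G)) :
    T ≤ Subgroup.normalizer ((relCenter S Y h : Subgroup G) : Set G) := by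
  rw [Subgroup.le_normalizer_iff]
  intro t ht x hx
  refine ⟨conj_mem_of_le_normalizer hTS ht hx.1, fun y hy => ?_⟩
  have h1 := hx.2 (t⁻¹ * y * t) (inv_conj_mem_of_le_normalizer hTS ht hy)
  have h2 := conj_mem_of_le_normalizer hTY ht h1
  have e : t * x * t⁻¹ * y * (t * x * t⁻¹)⁻¹ * y⁻¹ =
      t * (x * (t⁻¹ * y * t) * x⁻¹ * (t⁻¹ * y * t)⁻¹) * t⁻¹ := by group
  rw [e]
  exact h2

section Main

variable {q : ℕ} [Fact q.Prime] {A : Subgroup G}

/-- The abelian step. -/
theorem abel_step (hA : Cfsg.IsElementaryAbelian q A) {X Y : Subgroup G}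
    (hXY : X ≤ Subgroup.normalizer (Y : Set G))
    (hc : ∀ a ∈ X, ∀ b ∈ X, a * b * a⁻¹ * b⁻¹ ∈ Y)
    (hq : ¬ q ∣ Nat.card X) (hAX : A ≤ Subgroup.normalizer (X : Set G)) :
    Y.relIndex X ≤ ∏ B : Hyp q A, Y.relIndex (X ⊓ Subgroup.centralizer ((B : Subgroup G) : Set G)) := by
  classical
  haveI hYn : (Y.subgroupOf X).Normal := Subgroup.normal_subgroupOf_of_le_normalizer hXY
  have hgen := eq_iSup_relIndex_le hA hq hAX
  let H : Hyp q A → Subgroup X := fun B =>
    (X ⊓ Subgroup.centralizer ((B : Subgroup G) : Set G)).subgroupOf X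
  have hH : ⨆ B, H B = ⊤ := by
    apply Subgroup.map_injective X.subtype_injective
    rw [Subgroup.map_iSup]
    have : ∀ B, (H B).map X.subtype = X ⊓ Subgroup.centralizer ((B : Subgroup G) : Set G) := fun B =>
      Subgroup.map_subgroupOf_eq_of_le inf_le_left
    simp only [this]
    rw [← hgen, ← MonoidHom.range_eq_map, Subgroup.range_subtype]
  have h := index_le_prod_relIndex (Y.subgroupOf X) (fun a b => hc a a.2 b b.2) H hH
  refine h.trans (le_of_eq ?_)
  apply Finset.prod_congr rfl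
  intro B _
  exact Subgroup.relIndex_subgroupOf inf_le_left

/-- The chain lemma for `p`-groups. -/
theorem chain {p : ℕ} [Fact p.Prime] (hA : Cfsg.IsElementaryAbelian q A) {S : Subgroup G}
    (hS : IsPGroup p S) (hq : ¬ q ∣ Nat.card S) (hAS : A ≤ Subgroup.normalizer (S : Set G)) :
    ∀ (n : ℕ) (Y : Subgroup G), Y.relIndex S = n → Y ≤ S → S ≤ Subgroup.normalizer (Y : Set G) →
      A ≤ Subgroup.normalizer (Y : Set G) →
      Y.relIndex S ≤ ∏ B : Hyp q A, Y.relIndex (S ⊓ Subgroup.centralizer ((B : Subgroup G) : Set G)) := by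
  intro n
  induction n using Nat.strong_induction_on with
  | _ n ih =>
  intro Y hn hYS hSY hAY
  by_cases hne : Y = S
  · subst hne
    rw [Subgroup.relIndex_self]
    apply Nat.one_le_iff_ne_zero.mpr
    exact Finset.prod_ne_zero_iff.mpr fun B _ => rne _ _
  obtain ⟨x, hx, hxY⟩ := exists_mem_relCenter hS hYS hSY hne
  set S₁ := relCenter S Y hSY with hS₁
  have hS₁S : S₁ ≤ S := fun a ha => ha.1
  have hYS₁ : Y ≤ S₁ := by
    intro a ha
    refine ⟨hYS ha, fun y hy => ?_⟩
    have h1 := conj_mem_of_le_normalizer hSY hy (Y.inv_mem ha)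
    have e : a * y * a⁻¹ * y⁻¹ = a * (y * a⁻¹ * y⁻¹) := by group
    rw [e]
    exact Y.mul_mem ha h1
  have hmul : Y.relIndex S₁ * S₁.relIndex S = Y.relIndex S :=
    Subgroup.relIndex_mul_relIndex _ _ _ hYS₁ hS₁S
  have h1lt : 1 < Y.relIndex S₁ := by
    have h0 : Y.relIndex S₁ ≠ 0 := rne _ _
    have h1 : Y.relIndex S₁ ≠ 1 := by
      intro h
      exact hxY (Subgroup.relIndex_eq_one.mp h hx)
    omega
  have hlt : S₁.relIndex S < n := by
    rw [← hn, ← hmul]
    have h0 : 0 < S₁.relIndex S := Nat.pos_of_ne_zero (rne _ _)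
    nlinarith
  have hS₁n : S ≤ Subgroup.normalizer (S₁ : Set G) :=
    normalizer_relCenter hSY (Subgroup.le_normalizer) hSY
  have hAS₁ : A ≤ Subgroup.normalizer (S₁ : Set G) := normalizer_relCenter hSY hAS hAY
  have hIH := ih _ hlt S₁ rfl hS₁S hS₁n hAS₁
  have hq₁ : ¬ q ∣ Nat.card S₁ := fun h => hq (h.trans (Subgroup.card_dvd_of_le hS₁S))
  have hab := abel_step hA (X := S₁) (Y := Y) (hS₁S.trans hSY)
    (fun a ha b hb => ha.2 b (hS₁S hb)) hq₁ hAS₁
  rw [← hmul]
  calc Y.relIndex S₁ * S₁.relIndex S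
      ≤ (∏ B : Hyp q A, Y.relIndex (S₁ ⊓ Subgroup.centralizer ((B : Subgroup G) : Set G))) *
        ∏ B : Hyp q A, S₁.relIndex (S ⊓ Subgroup.centralizer ((B : Subgroup G) : Set G)) :=
        Nat.mul_le_mul hab hIH
    _ = _ := by
        rw [← Finset.prod_mul_distrib]
        apply Finset.prod_congr rfl
        intro B _
        rw [relIndex_tower _ hYS₁ hS₁S]

/-- Products of pairwise coprime divisors divide. -/
theorem prod_dvd_of_pairwise {ι : Type*} (s : Finset ι) (f : ι → ℕ) (n : ℕ)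
    (hco : ∀ i ∈ s, ∀ j ∈ s, i ≠ j → Nat.Coprime (f i) (f j)) (hd : ∀ i ∈ s, f i ∣ n) :
    ∏ i ∈ s, f i ∣ n := by
  classical
  induction s using Finset.induction_on with
  | empty => simp
  | insert a s ha ih =>
    rw [Finset.prod_insert ha]
    apply Nat.Coprime.mul_dvd_of_dvd_of_dvd
    · apply Nat.Coprime.prod_right
      intro j hj
      exact hco a (Finset.mem_insert_self _ _) j (Finset.mem_insert_of_mem hj)
        (fun h => ha (h ▸ hj))
    · exact hd a (Finset.mem_insert_self _ _)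
    · exact ih (fun i hi j hj => hco i (Finset.mem_insert_of_mem hi) j (Finset.mem_insert_of_mem hj))
        (fun i hi => hd i (Finset.mem_insert_of_mem hi))

/-- One prime at a time. -/
theorem sylow_step (hA : Cfsg.IsElementaryAbelian q A) {X N : Subgroup G} (hNX : N ≤ X)
    (hXN : X ≤ Subgroup.normalizer (N : Set G)) (hq : ¬ q ∣ Nat.card X)
    (hAX : A ≤ Subgroup.normalizer (X : Set G)) (hAN : A ≤ Subgroup.normalizer (N : Set G))
    (s : ℕ) (hs : s.Prime) :
    ∃ g : Hyp q A → ℕ, (∀ B, g B ∣ N.relIndex (X ⊓ Subgroup.centralizer ((B : Subgroup G) : Set G))) ∧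
      (∀ B, ∃ k, g B = s ^ k) ∧
      s ^ (N.relIndex X).factorization s ≤ ∏ B, g B := by
  classical
  haveI : Fact s.Prime := ⟨hs⟩
  have hAcomm : IsMulCommutative A := hA.1
  have hAs : Group.IsSolvable A := Group.isSolvable_of_comm (fun a b => mul_comm' a b)
  have hApg : IsPGroup q A := Cfsg.Agent.Lib.Coprime.Generation2.isPGroup_of_isElementaryAbelian hA
  have hcop : (Nat.card A).Coprime (Nat.card X) := coprime_of_isPGroup hApg hq
  obtain ⟨Q, hQ, hAQ⟩ := exists_invariant_sylowIn (p := s) hAX hcop (Or.inl hAs)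
  obtain ⟨hQX, hQp, hQi⟩ := hQ
  have hqQ : ¬ q ∣ Nat.card Q := fun h => hq (h.trans (Subgroup.card_dvd_of_le hQX))
  -- `Y = Q ⊓ N`
  have hQY : Q ≤ Subgroup.normalizer ((Q ⊓ N : Subgroup G) : Set G) := by
    rw [Subgroup.le_normalizer_iff]
    intro t ht x hx
    obtain ⟨h1, h2⟩ := Subgroup.mem_inf.mp hx
    exact Subgroup.mem_inf.mpr ⟨Q.mul_mem (Q.mul_mem ht h1) (Q.inv_mem ht),
      conj_mem_of_le_normalizer hXN (hQX ht) h2⟩
  have hAY : A ≤ Subgroup.normalizer ((Q ⊓ N : Subgroup G) : Set G) := by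
    rw [Subgroup.le_normalizer_iff]
    intro t ht x hx
    obtain ⟨h1, h2⟩ := Subgroup.mem_inf.mp hx
    exact Subgroup.mem_inf.mpr ⟨conj_mem_of_le_normalizer hAQ ht h1,
      conj_mem_of_le_normalizer hAN ht h2⟩
  have hch := chain hA hQp hqQ hAQ _ (Q ⊓ N) rfl inf_le_left hQY hAY
  have e1 : (Q ⊓ N).relIndex Q = N.relIndex Q := by
    rw [inf_comm, Subgroup.inf_relIndex_right]
  have e2 : ∀ C : Subgroup G, (Q ⊓ N).relIndex (Q ⊓ C) = N.relIndex (Q ⊓ C) := by
    intro C
    rw [← Subgroup.inf_relIndex_right (Q ⊓ N), ← Subgroup.inf_relIndex_right N (Q ⊓ C)]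
    congr 1
    ext x
    simp only [Subgroup.mem_inf]
    tauto
  refine ⟨fun B => N.relIndex (Q ⊓ Subgroup.centralizer ((B : Subgroup G) : Set G)), ?_, ?_, ?_⟩
  · intro B
    exact relIndex_dvd_of_le (inf_le_inf_right _ hQX) (inf_le_left.trans hXN)
  · intro B
    have h1 : N.relIndex (Q ⊓ Subgroup.centralizer ((B : Subgroup G) : Set G)) ∣
        Nat.card (Q ⊓ Subgroup.centralizer ((B : Subgroup G) : Set G) : Subgroup G) :=
      Subgroup.index_dvd_card _
    have hp : IsPGroup s (Q ⊓ Subgroup.centralizer ((B : Subgroup G) : Set G) : Subgroup G) :=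
      hQp.to_le inf_le_left
    obtain ⟨k, hk⟩ := IsPGroup.iff_card.mp hp
    rw [hk] at h1
    obtain ⟨j, -, hj⟩ := (Nat.dvd_prime_pow hs).mp h1
    exact ⟨j, hj⟩
  · simp only [e2] at hch
    rw [e1] at hch
    refine le_trans ?_ hch
    -- the `s`-part of `|X : N|`
    haveI hNn : (N.subgroupOf X).Normal := Subgroup.normal_subgroupOf_of_le_normalizer hXN
    set π := QuotientGroup.mk' (N.subgroupOf X) with hπ
    have hπs : Function.Surjective π := QuotientGroup.mk'_surjective _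
    have hker : π.ker = N.subgroupOf X := QuotientGroup.ker_mk' _
    set Q' : Subgroup X := Q.subgroupOf X with hQ'
    have h1 : Nat.card (Q'.map π) = N.relIndex Q := by
      rw [← Subgroup.relIndex_ker, hker]
      exact Subgroup.relIndex_subgroupOf hQX
    have h2 : (Q'.map π).index ∣ Q.relIndex X := Subgroup.index_map_dvd _ hπs
    have h3 : N.relIndex X = N.relIndex Q * (Q'.map π).index := by
      rw [← h1, Subgroup.card_mul_index]
      rfl
    have hni : ¬ s ∣ (Q'.map π).index := fun h => hQi (h.trans h2)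
    have hcop2 : Nat.Coprime (s ^ (N.relIndex X).factorization s) (Q'.map π).index :=
      Nat.Coprime.pow_left _ ((Nat.Prime.coprime_iff_not_dvd hs).mpr hni)
    have hdvd : s ^ (N.relIndex X).factorization s ∣ N.relIndex Q * (Q'.map π).index := by
      rw [← h3]
      exact Nat.ordProj_dvd _ _
    have h4 := hcop2.dvd_of_dvd_mul_right hdvd
    exact Nat.le_of_dvd (Nat.pos_of_ne_zero (rne _ _)) h4

/-- **The order formula**: the index is bounded by the product of the indices in the fixed points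
of the hyperplanes of `A`. -/
theorem relIndex_le_prod (hA : Cfsg.IsElementaryAbelian q A) {X N : Subgroup G} (hNX : N ≤ X)
    (hXN : X ≤ Subgroup.normalizer (N : Set G)) (hq : ¬ q ∣ Nat.card X)
    (hAX : A ≤ Subgroup.normalizer (X : Set G)) (hAN : A ≤ Subgroup.normalizer (N : Set G)) :
    N.relIndex X ≤ ∏ B : Hyp q A, N.relIndex (X ⊓ Subgroup.centralizer ((B : Subgroup G) : Set G)) := by
  classical
  set x := N.relIndex X with hx
  have hx0 : x ≠ 0 := rne _ _
  have hstep := fun (s : {s // s ∈ x.primeFactors}) =>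
    sylow_step hA hNX hXN hq hAX hAN s.1 (Nat.prime_of_mem_primeFactors s.2)
  choose g hg1 hg2 hg3 using hstep
  have hxe : x = ∏ s ∈ x.primeFactors, s ^ x.factorization s := by
    conv_lhs => rw [← Nat.prod_factorization_pow_eq_self hx0]
    rw [Nat.prod_factorization_eq_prod_primeFactors]
  have hxe' : x = ∏ s : {s // s ∈ x.primeFactors}, (s : ℕ) ^ x.factorization s := by
    conv_lhs => rw [hxe]
    exact (Finset.prod_coe_sort x.primeFactors (fun s => s ^ x.factorization s)).symm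
  calc x = ∏ s : {s // s ∈ x.primeFactors}, (s : ℕ) ^ x.factorization s := hxe'
    _ ≤ ∏ s : {s // s ∈ x.primeFactors}, ∏ B, g s B := Finset.prod_le_prod' fun s _ => hg3 s
    _ = ∏ B, ∏ s : {s // s ∈ x.primeFactors}, g s B := Finset.prod_comm
    _ ≤ _ := by
        apply Finset.prod_le_prod'
        intro B _
        apply Nat.le_of_dvd (Nat.pos_of_ne_zero (rne _ _))
        apply prod_dvd_of_pairwise
        · intro s _ t _ hst
          obtain ⟨k, hk⟩ := hg2 s B
          obtain ⟨l, hl⟩ := hg2 t B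
          rw [hk, hl]
          apply Nat.Coprime.pow
          rw [Nat.coprime_primes (Nat.prime_of_mem_primeFactors s.2) (Nat.prime_of_mem_primeFactors t.2)]
          exact fun h => hst (Subtype.ext h)
        · intro s _
          exact hg1 s B

end Main

end Cfsg.Agent.Lib.GurShum.Chain
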