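import Cfsg.Agent.Lib.GurShum.Chain

/-!
# The Guralnick–Shumyatsky bound, internal form

`A` is elementary abelian of order `q ^ 3`, it normalizes the subgroup `K` of order prime to `q`,
and `|C_K(d)'| ≤ m` for all `1 ≠ d ∈ A`.  Then `|K'|` is bounded in terms of `q` and `m`.
-/

set_option autoImplicit false
set_option linter.unusedSectionVars false
open scoped commutatorElement Pointwise

namespace Cfsg.Agent.Lib.GurShum.Main

open Cfsg.Agent.Lib.GurShum.Basic Cfsg.Agent.Lib.GurShum.Chain Cfsg.Agent.Lib.Coprime.Action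
open Cfsg.Agent.Lib.Coprime.Generation2 Cfsg.Agent.Lib.Coprime.SchurZassenhaus

universe u

variable {G : Type u} [Group G]

/-- `C_K(d)`. -/
abbrev Kc (K : Subgroup G) (d : G) : Subgroup G := K ⊓ Subgroup.centralizer ({d} : Set G)

/-- `C_K(d)'`. -/
abbrev Dd (K : Subgroup G) (d : G) : Subgroup G := ⁅Kc K d, Kc K d⁆

/-- The nontrivial elements of `A`. -/
abbrev Asharp (A : Subgroup G) : Type u := {d : G // d ∈ A ∧ d ≠ 1}

/-- The subgroup `T`. -/
def Tt (A K : Subgroup G) : Subgroup G := ⨆ d : Asharp A, Dd K d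

/-- The generating set of `T`. -/
def Yy (q : ℕ) (A K : Subgroup G) : Set G :=
  {y | (∃ d : Asharp A, y ∈ Dd K d) ∧ ∃ B : Hyp q A, y ∈ Subgroup.centralizer ((B : Subgroup G) : Set G)}

theorem Dd_le (K : Subgroup G) (d : G) : Dd K d ≤ K := by
  rw [Subgroup.commutator_le]
  intro x hx y hy
  rw [commutatorElement_def]
  have hx' : x ∈ K := (Subgroup.mem_inf.mp hx).1
  have hy' : y ∈ K := (Subgroup.mem_inf.mp hy).1
  exact K.mul_mem (K.mul_mem (K.mul_mem hx' hy') (K.inv_mem hx')) (K.inv_mem hy')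

theorem Tt_le (A K : Subgroup G) : Tt A K ≤ K := iSup_le fun d => Dd_le K d

theorem Dd_le_Tt (A K : Subgroup G) (d : Asharp A) : Dd K (d : G) ≤ Tt A K :=
  le_iSup (fun d : Asharp A => Dd K (d : G)) d

theorem normalizer_Kc {A K : Subgroup G} (hAK : A ≤ Subgroup.normalizer (K : Set G))
    (hAc : ∀ a ∈ A, ∀ b ∈ A, a * b = b * a) {d : G} (hd : d ∈ A) :
    A ≤ Subgroup.normalizer ((Kc K d : Subgroup G) : Set G) := by
  rw [Subgroup.le_normalizer_iff]
  intro t ht x hx
  obtain ⟨h1, h2⟩ := Subgroup.mem_inf.mp hx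
  refine Subgroup.mem_inf.mpr ⟨conj_mem_of_le_normalizer hAK ht h1, ?_⟩
  rw [Subgroup.mem_centralizer_singleton_iff] at h2 ⊢
  have h3 := hAc t ht d hd
  calc t * x * t⁻¹ * d = t * x * (t⁻¹ * d) := by group
    _ = t * x * (d * t⁻¹) := by
        congr 1
        calc t⁻¹ * d = t⁻¹ * (d * t) * t⁻¹ := by group
          _ = t⁻¹ * (t * d) * t⁻¹ := by rw [h3]
          _ = d * t⁻¹ := by group
    _ = t * (x * d) * t⁻¹ := by group
    _ = t * (d * x) * t⁻¹ := by rw [h2]
    _ = (t * d) * x * t⁻¹ := by group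
    _ = (d * t) * x * t⁻¹ := by rw [h3]
    _ = d * (t * x * t⁻¹) := by group

theorem normalizer_Dd {A K : Subgroup G} (hAK : A ≤ Subgroup.normalizer (K : Set G))
    (hAc : ∀ a ∈ A, ∀ b ∈ A, a * b = b * a) {d : G} (hd : d ∈ A) :
    A ≤ Subgroup.normalizer ((Dd K d : Subgroup G) : Set G) :=
  le_normalizer_commutator_of_le (normalizer_Kc hAK hAc hd) (normalizer_Kc hAK hAc hd)

theorem commutator_mem_Dd {K B B' : Subgroup G} {e : G} (heB : e ∈ B) (heB' : e ∈ B') {x y : G}
    (hx : x ∈ K ⊓ Subgroup.centralizer (B : Set G)) (hy : y ∈ K ⊓ Subgroup.centralizer (B' : Set G)) :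
    x * y * x⁻¹ * y⁻¹ ∈ Dd K e := by
  have h1 : x ∈ Kc K e := by
    obtain ⟨h1, h2⟩ := Subgroup.mem_inf.mp hx
    refine Subgroup.mem_inf.mpr ⟨h1, ?_⟩
    exact Subgroup.centralizer_le (Set.singleton_subset_iff.mpr heB) h2
  have h2 : y ∈ Kc K e := by
    obtain ⟨h1, h2⟩ := Subgroup.mem_inf.mp hy
    refine Subgroup.mem_inf.mpr ⟨h1, ?_⟩
    exact Subgroup.centralizer_le (Set.singleton_subset_iff.mpr heB') h2
  have := Subgroup.commutator_mem_commutator h1 h2
  rwa [commutatorElement_def] at this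

/-- A subgroup normalizing `K` and `T` normalizes `K ⊓ C(T)`. -/
theorem normalizer_inf_centralizer {K T U : Subgroup G} (hK : U ≤ Subgroup.normalizer (K : Set G))
    (hT : U ≤ Subgroup.normalizer (T : Set G)) :
    U ≤ Subgroup.normalizer ((K ⊓ Subgroup.centralizer (T : Set G) : Subgroup G) : Set G) := by
  rw [Subgroup.le_normalizer_iff]
  intro t ht x hx
  obtain ⟨h1, h2⟩ := Subgroup.mem_inf.mp hx
  refine Subgroup.mem_inf.mpr ⟨conj_mem_of_le_normalizer hK ht h1, ?_⟩
  rw [Subgroup.mem_centralizer_iff] at h2 ⊢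
  intro u hu
  have h3 := h2 (t⁻¹ * u * t) (inv_conj_mem_of_le_normalizer hT ht hu)
  calc u * (t * x * t⁻¹) = t * ((t⁻¹ * u * t) * x) * t⁻¹ := by group
    _ = t * (x * (t⁻¹ * u * t)) * t⁻¹ := by rw [h3]
    _ = t * x * t⁻¹ * u := by group

variable [Finite G]

section Core

variable {q : ℕ} [Fact q.Prime] {A K : Subgroup G}

omit [Fact q.Prime] in
/-- Two hyperplanes meet. -/
theorem exists_common (hq : q.Prime) (hcard : Nat.card A = q ^ 3) (B B' : Hyp q A) :
    ∃ e : Asharp A, (e : G) ∈ (B : Subgroup G) ∧ (e : G) ∈ (B' : Subgroup G) := by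
  by_contra hcon
  push Not at hcon
  have hbot : (B : Subgroup G) ⊓ (B' : Subgroup G) = ⊥ := by
    rw [eq_bot_iff]
    intro x hx
    obtain ⟨h1, h2⟩ := Subgroup.mem_inf.mp hx
    rw [Subgroup.mem_bot]
    by_contra hx1
    exact hcon ⟨x, B.2.1 h1, hx1⟩ h1 h2
  have h : ((B : Subgroup G) ⊓ (B' : Subgroup G)).relIndex A ≤
      (B : Subgroup G).relIndex A * (B' : Subgroup G).relIndex A := Subgroup.relIndex_inf_le
  rw [hbot, Subgroup.relIndex_bot_left, hcard] at h
  have h1 : (B : Subgroup G).relIndex A * (B' : Subgroup G).relIndex A ≤ q * q :=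
    Nat.mul_le_mul B.2.2 B'.2.2
  have h2 := hq.two_le
  have h3 : q ^ 3 = q * q * q := by ring
  nlinarith [Nat.mul_le_mul_left (q * q) h2]

variable (hA : Cfsg.IsElementaryAbelian q A) (hcard : Nat.card A = q ^ 3)
  (hq : ¬ q ∣ Nat.card K) (hAK : A ≤ Subgroup.normalizer (K : Set G))
include hA hq hAK

theorem hAc : ∀ a ∈ A, ∀ b ∈ A, a * b = b * a := by
  intro a ha b hb
  have := hA.1
  have h := mul_comm' (⟨a, ha⟩ : A) (⟨b, hb⟩ : A)
  exact congrArg Subtype.val h

theorem hqDd (d : G) : ¬ q ∣ Nat.card (Dd K d) := fun h =>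
  hq (h.trans (Subgroup.card_dvd_of_le (Dd_le K d)))

/-- `T` is generated by `Y`. -/
theorem closure_Yy : Subgroup.closure (Yy q A K) = Tt A K := by
  apply le_antisymm
  · rw [Subgroup.closure_le]
    rintro y ⟨⟨d, hd⟩, -⟩
    exact Dd_le_Tt A K d hd
  · apply iSup_le
    intro d
    rw [eq_iSup_relIndex_le hA (hqDd hA hq hAK (d : G)) (normalizer_Dd hAK (hAc hA hq hAK) d.2.1)]
    apply iSup_le
    intro B x hx
    obtain ⟨h1, h2⟩ := Subgroup.mem_inf.mp hx
    exact Subgroup.subset_closure ⟨⟨d, h1⟩, B, h2⟩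

/-- The commutator of a fixed point with an element of `Y`. -/
theorem exists_comm_Yy (hqp : q.Prime) (hcard : Nat.card A = q ^ 3) (B : Hyp q A) {y : G}
    (hy : y ∈ Yy q A K) :
    ∃ e : Asharp A, ∀ g ∈ K ⊓ Subgroup.centralizer ((B : Subgroup G) : Set G),
      g * y * g⁻¹ * y⁻¹ ∈ Dd K (e : G) := by
  obtain ⟨⟨d, hd⟩, B', hB'⟩ := hy
  obtain ⟨e, he, he'⟩ := exists_common hqp hcard B B'
  refine ⟨e, fun g hg => ?_⟩
  exact commutator_mem_Dd he he' hg (Subgroup.mem_inf.mpr ⟨Dd_le K _ hd, hB'⟩)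

theorem normalizer_Tt_hyp (hqp : q.Prime) (hcard : Nat.card A = q ^ 3) (B : Hyp q A) :
    K ⊓ Subgroup.centralizer ((B : Subgroup G) : Set G) ≤ Subgroup.normalizer ((Tt A K : Subgroup G) : Set G) := by
  rw [Subgroup.le_normalizer_iff]
  intro t ht
  have hle : Tt A K ≤ (Tt A K).comap (MulAut.conj t).toMonoidHom := by
    rw [← closure_Yy hA hq hAK, Subgroup.closure_le, closure_Yy hA hq hAK]
    intro y hy
    obtain ⟨e, he⟩ := exists_comm_Yy hA hq hAK hqp hcard B hy
    have h1 := Dd_le_Tt A K e (he t ht)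
    have h2 : y ∈ Tt A K := by
      rw [← closure_Yy hA hq hAK]
      exact Subgroup.subset_closure hy
    have h3 := (Tt A K).mul_mem h1 h2
    have e1 : t * y * t⁻¹ * y⁻¹ * y = t * y * t⁻¹ := by group
    rw [e1] at h3
    exact h3
  intro y hy
  exact hle hy

theorem normalizer_Tt_K (hqp : q.Prime) (hcard : Nat.card A = q ^ 3) :
    K ≤ Subgroup.normalizer ((Tt A K : Subgroup G) : Set G) := by
  have hgen := eq_iSup_relIndex_le hA hq hAK
  exact hgen.le.trans (iSup_le fun B => normalizer_Tt_hyp hA hq hAK hqp hcard B)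

theorem normalizer_Tt_A : A ≤ Subgroup.normalizer ((Tt A K : Subgroup G) : Set G) := by
  rw [Subgroup.le_normalizer_iff]
  intro t ht
  have hle : Tt A K ≤ (Tt A K).comap (MulAut.conj t).toMonoidHom := by
    apply iSup_le
    intro d x hx
    exact Dd_le_Tt A K d (conj_mem_of_le_normalizer (normalizer_Dd hAK (hAc hA hq hAK) d.2.1) ht hx)
  intro y hy
  exact hle hy

/-- The derived subgroup of `K` lies in `T`. -/
theorem commutator_le_Tt (hqp : q.Prime) (hcard : Nat.card A = q ^ 3) : ⁅K, K⁆ ≤ Tt A K := by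
  have hgen := eq_iSup_relIndex_le hA hq hAK
  have hT := normalizer_Tt_K hA hq hAK hqp hcard
  have h1 : ∀ B : Hyp q A, ⁅K, K ⊓ Subgroup.centralizer ((B : Subgroup G) : Set G)⁆ ≤ Tt A K := by
    intro B
    apply commutator_le_of_generated K _ (Tt A K) hT (Set.univ : Set (Hyp q A))
      (fun B' => K ⊓ Subgroup.centralizer ((B' : Subgroup G) : Set G))
    · simpa using hgen
    · intro B' _
      rw [Subgroup.commutator_le]
      intro x hx y hy
      obtain ⟨e, he, he'⟩ := exists_common hqp hcard B' B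
      have := commutator_mem_Dd he he' hx hy
      rw [commutatorElement_def]
      exact Dd_le_Tt A K e this
  rw [Subgroup.commutator_comm]
  apply commutator_le_of_generated K _ (Tt A K) hT (Set.univ : Set (Hyp q A))
    (fun B' => K ⊓ Subgroup.centralizer ((B' : Subgroup G) : Set G))
  · simpa using hgen
  · intro B' _
    rw [Subgroup.commutator_comm]
    exact h1 B'

/-- The index of the centralizer of an element of `Y` in a fixed point subgroup is at most `m`. -/
theorem relIndex_centralizer_le (hqp : q.Prime) (hcard : Nat.card A = q ^ 3) {m : ℕ}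
    (hm : ∀ d : Asharp A, Nat.card (Dd K (d : G)) ≤ m) (B : Hyp q A) {y : G} (hy : y ∈ Yy q A K) :
    (Subgroup.centralizer ({y} : Set G)).relIndex (K ⊓ Subgroup.centralizer ((B : Subgroup G) : Set G)) ≤ m := by
  obtain ⟨e, he⟩ := exists_comm_Yy hA hq hAK hqp hcard B hy
  set U := K ⊓ Subgroup.centralizer ((B : Subgroup G) : Set G) with hU
  let φ : U → Dd K (e : G) := fun g => ⟨g * y * (g : G)⁻¹ * y⁻¹, he g g.2⟩
  have h1 := index_le_of_fibers ((Subgroup.centralizer ({y} : Set G)).subgroupOf U) φ (by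
    intro g g' hgg
    have h2 : (g : G) * y * (g : G)⁻¹ * y⁻¹ = (g' : G) * y * (g' : G)⁻¹ * y⁻¹ :=
      congrArg Subtype.val hgg
    have h3 : (g : G) * y * (g : G)⁻¹ = (g' : G) * y * (g' : G)⁻¹ := mul_right_cancel h2
    rw [Subgroup.mem_subgroupOf, Subgroup.mem_centralizer_singleton_iff]
    show (g : G)⁻¹ * g' * y = y * ((g : G)⁻¹ * g')
    calc (g : G)⁻¹ * g' * y = (g : G)⁻¹ * ((g' : G) * y * (g' : G)⁻¹) * g' := by group
      _ = (g : G)⁻¹ * ((g : G) * y * (g : G)⁻¹) * g' := by rw [h3]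
      _ = y * ((g : G)⁻¹ * g') := by group)
  exact h1.trans (hm e)

/-- The size of `Y`. -/
theorem card_Yy_le {m : ℕ} (hcard : Nat.card A = q ^ 3)
    (hm : ∀ d : Asharp A, Nat.card (Dd K (d : G)) ≤ m) :
    Nat.card (Yy q A K) ≤ q ^ 3 * m := by
  classical
  have hch : ∀ y : Yy q A K, ∃ d : Asharp A, (y : G) ∈ Dd K (d : G) := fun y => y.2.1
  choose dd hdd using hch
  let φ : Yy q A K → Σ d : Asharp A, Dd K (d : G) := fun y => ⟨dd y, ⟨y, hdd y⟩⟩
  have hφ : Function.Injective φ := by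
    intro y y' h
    exact Subtype.ext (congrArg (fun s : (Σ d : Asharp A, Dd K (d : G)) => ((s.2 : Dd K (s.1 : G)) : G)) h)
  have h1 := Nat.card_le_card_of_injective φ hφ
  letI : Fintype (Asharp A) := Fintype.ofFinite _
  rw [Nat.card_sigma] at h1
  have h2 : ∑ d : Asharp A, Nat.card (Dd K (d : G)) ≤ Fintype.card (Asharp A) * m := by
    calc _ ≤ ∑ _d : Asharp A, m := Finset.sum_le_sum fun d _ => hm d
      _ = _ := by simp
  have h3 : Fintype.card (Asharp A) ≤ q ^ 3 := by
    rw [← hcard, ← Nat.card_eq_fintype_card]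
    exact Nat.card_le_card_of_injective (fun d : Asharp A => (⟨d, d.2.1⟩ : A))
      (fun d d' h => Subtype.ext (congrArg (fun z : A => (z : G)) h))
  exact h1.trans (h2.trans (Nat.mul_le_mul_right _ h3))

/-- The centralizer of `T` in `K` has bounded index in fixed point subgroups. -/
theorem relIndex_N_hyp (hqp : q.Prime) (hcard : Nat.card A = q ^ 3) {m : ℕ}
    (hm : ∀ d : Asharp A, Nat.card (Dd K (d : G)) ≤ m) (B : Hyp q A) :
    (K ⊓ Subgroup.centralizer ((Tt A K : Subgroup G) : Set G)).relIndex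
      (K ⊓ Subgroup.centralizer ((B : Subgroup G) : Set G)) ≤ (m + 1) ^ (q ^ 3 * m) := by
  classical
  set U := K ⊓ Subgroup.centralizer ((B : Subgroup G) : Set G) with hU
  have hUK : U ≤ K := inf_le_left
  have e1 : (K ⊓ Subgroup.centralizer ((Tt A K : Subgroup G) : Set G)).relIndex U =
      (Subgroup.centralizer ((Tt A K : Subgroup G) : Set G)).relIndex U := by
    rw [← Subgroup.inf_relIndex_right (K ⊓ _) U,
      ← Subgroup.inf_relIndex_right (Subgroup.centralizer ((Tt A K : Subgroup G) : Set G)) U]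
    congr 1
    ext x
    simp only [Subgroup.mem_inf]
    constructor
    · rintro ⟨⟨_, h2⟩, h3⟩
      exact ⟨h2, h3⟩
    · rintro ⟨h2, h3⟩
      exact ⟨⟨hUK h3, h2⟩, h3⟩
  rw [e1]
  have e2 : Subgroup.centralizer ((Tt A K : Subgroup G) : Set G) =
      ⨅ y : Yy q A K, Subgroup.centralizer ({(y : G)} : Set G) := by
    rw [← closure_Yy hA hq hAK, Subgroup.centralizer_closure]
    ext x
    simp only [Subgroup.mem_iInf, Subgroup.mem_centralizer_iff]
    constructor
    · intro h y z hz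
      rw [Set.mem_singleton_iff] at hz
      subst hz
      exact h _ y.2
    · intro h z hz
      exact h ⟨z, hz⟩ z rfl
  rw [e2]
  letI : Fintype (Yy q A K) := Fintype.ofFinite _
  refine (Subgroup.relIndex_iInf_le _).trans ?_
  calc _ ≤ ∏ _y : Yy q A K, (m + 1) := Finset.prod_le_prod' fun y _ =>
        (relIndex_centralizer_le hA hq hAK hqp hcard hm B y.2).trans (Nat.le_succ m)
    _ = (m + 1) ^ Fintype.card (Yy q A K) := by simp
    _ ≤ _ := by
        apply Nat.pow_le_pow_right (Nat.succ_pos m)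
        rw [← Nat.card_eq_fintype_card]
        exact card_Yy_le hA hq hAK hcard hm

omit hq hAK hA in
/-- The number of hyperplanes. -/
theorem card_Hyp_le (hcard : Nat.card A = q ^ 3) : Fintype.card (Hyp q A) ≤ 2 ^ q ^ 3 := by
  classical
  have h1 : Function.Injective (fun (B : Hyp q A) (a : A) => (a : G) ∈ (B : Subgroup G)) := by
    intro B B' h
    apply Subtype.ext
    ext x
    constructor
    · intro hx
      have := congrFun h ⟨x, B.2.1 hx⟩
      exact (iff_of_eq this).mp hx
    · intro hx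
      have := congrFun h ⟨x, B'.2.1 hx⟩
      exact (iff_of_eq this).mpr hx
  have h2 := Nat.card_le_card_of_injective _ h1
  have h3 : Nat.card Prop = 2 := by simp [Nat.card_eq_fintype_card]
  rw [Nat.card_fun, hcard, h3, Nat.card_eq_fintype_card] at h2
  exact h2

/-- The bound for the index of the centralizer. -/
def W (q m : ℕ) : ℕ := ((m + 1) ^ (q ^ 3 * m)) ^ 2 ^ q ^ 3

omit hcard in
theorem relIndex_N_K (hqp : q.Prime) (hcard : Nat.card A = q ^ 3) {m : ℕ}
    (hm : ∀ d : Asharp A, Nat.card (Dd K (d : G)) ≤ m) :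
    (K ⊓ Subgroup.centralizer ((Tt A K : Subgroup G) : Set G)).relIndex K ≤ W q m := by
  have hKN := normalizer_inf_centralizer (K := K) (T := Tt A K) (U := K) Subgroup.le_normalizer
    (normalizer_Tt_K hA hq hAK hqp hcard)
  have hAN := normalizer_inf_centralizer (K := K) (T := Tt A K) (U := A) hAK
    (normalizer_Tt_A hA hq hAK)
  have h := relIndex_le_prod hA (X := K) (N := K ⊓ Subgroup.centralizer ((Tt A K : Subgroup G) : Set G))
    inf_le_left hKN hq hAK hAN
  refine h.trans ?_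
  calc _ ≤ ∏ _B : Hyp q A, (m + 1) ^ (q ^ 3 * m) := Finset.prod_le_prod' fun B _ =>
        relIndex_N_hyp hA hq hAK hqp hcard hm B
    _ = ((m + 1) ^ (q ^ 3 * m)) ^ Fintype.card (Hyp q A) := by simp
    _ ≤ _ := by
        apply Nat.pow_le_pow_right (Nat.pos_of_ne_zero (by positivity))
        exact card_Hyp_le hcard

omit hcard in
/-- The index of the centre of `T`. -/
theorem index_center_T (hqp : q.Prime) (hcard : Nat.card A = q ^ 3) {m : ℕ}
    (hm : ∀ d : Asharp A, Nat.card (Dd K (d : G)) ≤ m) :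
    (Subgroup.center (Tt A K)).index ≤ W q m := by
  have hKN := normalizer_inf_centralizer (K := K) (T := Tt A K) (U := K) Subgroup.le_normalizer
    (normalizer_Tt_K hA hq hAK hqp hcard)
  have h1 := relIndex_dvd_of_le (Tt_le A K) hKN
  have h2 := Nat.le_of_dvd (Nat.pos_of_ne_zero (rne _ _)) h1
  refine le_trans (le_of_eq ?_) (h2.trans (relIndex_N_K hA hq hAK hqp hcard hm))
  have e : Subgroup.center (Tt A K) =
      (K ⊓ Subgroup.centralizer ((Tt A K : Subgroup G) : Set G)).subgroupOf (Tt A K) := by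
    ext x
    rw [Subgroup.mem_subgroupOf, Subgroup.mem_inf, Subgroup.mem_center_iff, Subgroup.mem_centralizer_iff]
    constructor
    · intro h
      refine ⟨Tt_le A K x.2, fun y hy => ?_⟩
      exact congrArg Subtype.val (h ⟨y, hy⟩)
    · rintro ⟨-, h⟩ y
      exact Subtype.ext (h y y.2)
  rw [e]
  rfl

omit hcard in
/-- The index of the derived subgroup of `T`. -/
theorem index_commutator_T (hqp : q.Prime) (hcard : Nat.card A = q ^ 3) {m : ℕ}
    (hm : ∀ d : Asharp A, Nat.card (Dd K (d : G)) ≤ m) :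
    (commutator (Tt A K)).index ≤ (m + 1) ^ q ^ 3 := by
  classical
  letI : Fintype (Asharp A) := Fintype.ofFinite _
  let H : Asharp A → Subgroup (Tt A K) := fun d => (Dd K (d : G)).subgroupOf (Tt A K)
  have hH : ⨆ d, H d = ⊤ := by
    apply Subgroup.map_injective (Tt A K).subtype_injective
    rw [Subgroup.map_iSup]
    have : ∀ d, (H d).map (Tt A K).subtype = Dd K (d : G) := fun d =>
      Subgroup.map_subgroupOf_eq_of_le (Dd_le_Tt A K d)
    simp only [this]
    rw [← MonoidHom.range_eq_map, Subgroup.range_subtype]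
    rfl
  have hc : ∀ a b : Tt A K, a * b * a⁻¹ * b⁻¹ ∈ commutator (Tt A K) := by
    intro a b
    have := Subgroup.commutator_mem_commutator (Subgroup.mem_top a) (Subgroup.mem_top b)
    rwa [commutatorElement_def] at this
  have h := index_le_prod_relIndex (commutator (Tt A K)) hc H hH
  refine h.trans ?_
  calc _ ≤ ∏ _d : Asharp A, (m + 1) := Finset.prod_le_prod' fun d _ => by
        have h1 : (commutator (Tt A K)).relIndex (H d) ∣ Nat.card (H d) :=
          Subgroup.index_dvd_card _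
        have h2 := Nat.le_of_dvd Nat.card_pos h1
        have h3 : Nat.card (H d) = Nat.card (Dd K (d : G)) :=
          card_subgroupOf_of_le (Dd_le_Tt A K d)
        rw [h3] at h2
        exact h2.trans ((hm d).trans (Nat.le_succ m))
    _ = (m + 1) ^ Fintype.card (Asharp A) := by simp
    _ ≤ _ := by
        apply Nat.pow_le_pow_right (Nat.succ_pos m)
        rw [← hcard, ← Nat.card_eq_fintype_card]
        exact Nat.card_le_card_of_injective (fun d : Asharp A => (⟨d, d.2.1⟩ : A))
          (fun d d' h => Subtype.ext (congrArg (fun z : A => (z : G)) h))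

/-- The final bound. -/
def F (q m : ℕ) : ℕ :=
  ((Finset.range (W q m ^ 2 + 1)).sup Subgroup.cardCommutatorBound) * (m + 1) ^ q ^ 3

omit hcard in
/-- **The bound, internal form.** -/
theorem card_commutator_le (hqp : q.Prime) (hcard : Nat.card A = q ^ 3) {m : ℕ}
    (hm : ∀ d : Asharp A, Nat.card (Dd K (d : G)) ≤ m) :
    Nat.card (⁅K, K⁆ : Subgroup G) ≤ F q m := by
  have h1 : Nat.card (⁅K, K⁆ : Subgroup G) ≤ Nat.card (Tt A K) :=
    Nat.le_of_dvd Nat.card_pos (Subgroup.card_dvd_of_le (commutator_le_Tt hA hq hAK hqp hcard))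
  refine h1.trans ?_
  have h2 : Nat.card (Tt A K) = Nat.card (commutator (Tt A K)) * (commutator (Tt A K)).index :=
    (Subgroup.card_mul_index _).symm
  rw [h2]
  apply Nat.mul_le_mul _ (index_commutator_T hA hq hAK hqp hcard hm)
  have h3 : Nat.card (commutator (Tt A K)) ≤
      Subgroup.cardCommutatorBound (Nat.card (commutatorSet (Tt A K))) :=
    Subgroup.card_commutator_le_of_finite_commutatorSet (Tt A K)
  refine h3.trans ?_
  apply Finset.le_sup (f := Subgroup.cardCommutatorBound)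
  rw [Finset.mem_range, Nat.lt_succ_iff]
  refine card_commutatorSet_le.trans ?_
  exact Nat.pow_le_pow_left (index_center_T hA hq hAK hqp hcard hm) 2

end Core

end Cfsg.Agent.Lib.GurShum.Main
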